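/-
`GU_m(q)` acting on `K^m` as an `F`-linear group, where `K/F` is the quadratic extension of finite
fields; transfer of the form to the symplectic and quadratic forms over `F`.
-/
import Mathlib
import Cfsg.Agent.Lib.Classical.HermBridge
import Cfsg.Agent.Lib.Classical.SympForm
import Cfsg.Agent.Lib.Orth.HypBasis
import Cfsg.Agent.Lib.Orth.Bridge
import Cfsg.Agent.Lib.Orth.Forms

set_option autoImplicit false
set_option linter.unusedSimpArgs false
set_option linter.unusedSectionVars false
set_option linter.style.haveILetI false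
set_option linter.unusedVariables false

namespace Cfsg.Agent.Lib.UnitT.Embed

open Matrix Cfsg Module Polynomial
open Cfsg.Agent.Lib.Classical.HermBasic Cfsg.Agent.Lib.Classical.HermBridge
open Cfsg.Agent.Lib.HermCount.Field
open Cfsg.Agent.Lib.Classical.SympForm Cfsg.Agent.Lib.Classical.Alt

variable {K F : Type*} [Field K] [Fintype K] [Field F] [Fintype F] {q : ℕ}

/-- There is a field embedding of `F_q` in `F_{q²}`. -/
theorem exists_ringHom (hK : Fintype.card K = q ^ 2) (hF : Fintype.card F = q) :
    Nonempty (F →+* K) := by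
  classical
  obtain ⟨p, hp⟩ := CharP.exists F
  obtain ⟨p', hp'⟩ := CharP.exists K
  obtain ⟨n, hpp, hcard⟩ := FiniteField.card F p
  obtain ⟨n', hpp', hcard'⟩ := FiniteField.card K p'
  have hpq : p = p' := by
    have h1 : p ∣ p' ^ (n' : ℕ) := by
      rw [← hcard', hK, ← hF, hcard]
      exact dvd_pow (dvd_pow_self p n.ne_zero) two_ne_zero
    exact (Nat.prime_dvd_prime_iff_eq hpp hpp').1 (hpp.dvd_of_dvd_pow h1)
  subst hpq
  haveI : Fact p.Prime := ⟨hpp⟩
  letI : Algebra (ZMod p) F := ZMod.algebra F p
  letI : Algebra (ZMod p) K := ZMod.algebra K p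
  have h1 := FiniteField.pow_finrank_eq_card p F
  have h2 := FiniteField.pow_finrank_eq_card p K
  have h3 : finrank (ZMod p) K = 2 * finrank (ZMod p) F := by
    apply Nat.pow_right_injective hpp.two_le
    show p ^ _ = p ^ _
    rw [h2, hK, pow_mul', h1, hF]
  have hd : finrank (ZMod p) F ∣ finrank (ZMod p) K := ⟨2, by rw [h3, mul_comm]⟩
  obtain ⟨f⟩ := FiniteField.nonempty_algHom_of_finrank_dvd hd
  exact ⟨f.toRingHom⟩

variable [Algebra F K]

theorem frob_alg (hF : Fintype.card F = q) (c : F) :
    (algebraMap F K c) ^ q = algebraMap F K c := by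
  rw [← map_pow, ← hF, FiniteField.pow_card]

theorem finrank_eq_two (hK : Fintype.card K = q ^ 2) (hF : Fintype.card F = q) :
    finrank F K = 2 := by
  have h1 : Fintype.card K = Fintype.card F ^ finrank F K := Module.card_eq_pow_finrank
  have hq := two_le hK
  rw [hK, hF] at h1
  exact (Nat.pow_right_injective hq h1).symm

/-- Elements fixed by the `q`-Frobenius lie in `F`. -/
theorem mem_range_of_fixed (hK : Fintype.card K = q ^ 2) (hF : Fintype.card F = q) {y : K}
    (hy : y ^ q = y) : ∃ c : F, algebraMap F K c = y := by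
  classical
  have hq := two_le hK
  have hinj : Function.Injective (algebraMap F K) := (algebraMap F K).injective
  set S : Finset K := Finset.univ.image (algebraMap F K) with hS
  have hne := FiniteField.X_pow_card_sub_X_ne_zero K (p := q) (by omega)
  have hsub : S ⊆ ((X ^ q - X : K[X]).roots).toFinset := by
    intro x hx
    obtain ⟨c, -, rfl⟩ := Finset.mem_image.1 hx
    rw [Multiset.mem_toFinset, Polynomial.mem_roots hne]
    simp [Polynomial.IsRoot, frob_alg hF c]
  have hcardS : S.card = q := by
    rw [hS, Finset.card_image_of_injective _ hinj, Finset.card_univ, hF]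
  have hle : ((X ^ q - X : K[X]).roots).toFinset.card ≤ q := by
    refine (Multiset.toFinset_card_le _).trans ((Polynomial.card_roots' _).trans ?_)
    rw [FiniteField.X_pow_card_sub_X_natDegree_eq K (by omega)]
  have heq := Finset.eq_of_subset_of_card_le hsub (by omega)
  have hmem : y ∈ S := by
    rw [heq, Multiset.mem_toFinset, Polynomial.mem_roots hne]
    simp [Polynomial.IsRoot, hy]
  obtain ⟨c, -, rfl⟩ := Finset.mem_image.1 hmem
  exact ⟨c, rfl⟩

/-- The elements of `K` outside `F`. -/
theorem not_fixed_of_not_mem {ω : K} (hF : Fintype.card F = q) (c : F) (hω : ω ^ q ≠ ω) :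
    algebraMap F K c ≠ ω := by
  rintro rfl
  exact hω (frob_alg hF c)

variable (F) (m : ℕ) (q) in
/-- The `F`-linear action of `GU_m(q)` on `K^m`. -/
noncomputable def guF : Cfsg.GU m K q →* ((Fin m → K) ≃ₗ[F] (Fin m → K)) where
  toFun g := ((guEquiv m q g).1).restrictScalars F
  map_one' := by
    ext x i
    simp
  map_mul' a b := by
    ext x i
    simp

theorem guF_apply (m : ℕ) (g : Cfsg.GU m K q) (x : Fin m → K) :
    guF F q m g x = (g.1 : Matrix (Fin m) (Fin m) K) *ᵥ x := rfl

theorem guF_herm (m : ℕ) (g : Cfsg.GU m K q) (x y : Fin m → K) :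
    hermForm m K q (guF F q m g x) (guF F q m g y) = hermForm m K q x y :=
  g.2 x y

theorem guF_injective (m : ℕ) : Function.Injective (guF F q m (K := K)) := by
  intro a b h
  apply (guEquiv (F := K) m q).injective
  apply Subtype.ext
  ext x i
  have := congrArg (fun e : (Fin m → K) ≃ₗ[F] (Fin m → K) => e x i) h
  exact this

/-- Transport of the `F`-linear action along an `F`-isomorphism. -/
noncomputable def conjHom {m : ℕ} {W : Type*} [AddCommGroup W] [Module F W]
    (Θ : W ≃ₗ[F] (Fin m → K)) : Cfsg.GU m K q →* (W ≃ₗ[F] W) where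
  toFun g := Θ.trans ((guF F q m g).trans Θ.symm)
  map_one' := by
    ext x
    simp
  map_mul' a b := by
    ext x
    simp

theorem conjHom_apply {m : ℕ} {W : Type*} [AddCommGroup W] [Module F W]
    (Θ : W ≃ₗ[F] (Fin m → K)) (g : Cfsg.GU m K q) (x : W) :
    conjHom Θ g x = Θ.symm (guF F q m g (Θ x)) := rfl

theorem conjHom_injective {m : ℕ} {W : Type*} [AddCommGroup W] [Module F W]
    (Θ : W ≃ₗ[F] (Fin m → K)) : Function.Injective (conjHom Θ (q := q)) := by
  intro a b h
  apply guF_injective (F := F) m
  ext x i
  have := congrArg (fun e : W ≃ₗ[F] W => Θ (e (Θ.symm x)) i) h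
  simpa [conjHom_apply] using this

/-- The embedding in the symplectic group. -/
theorem gu_embeds_symp (hK : Fintype.card K = q ^ 2) (hF : Fintype.card F = q) (m : ℕ) :
    ∃ φ : ↥(Cfsg.GU m K q) →* ↥(Matrix.symplecticGroup (Fin m) F), Function.Injective φ := by
  classical
  obtain ⟨ω, hω⟩ := exists_frob_ne hK
  have S := hform hK m
  have hι : Function.Injective (algebraMap F K) := (algebraMap F K).injective
  haveI : Module.Finite F K := Module.Finite.of_finite
  -- the coordinates
  let L : (Fin m ⊕ Fin m → F) →ₗ[F] (Fin m → K) :=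
    { toFun := fun x i => algebraMap F K (x (Sum.inl i)) + algebraMap F K (x (Sum.inr i)) * ω
      map_add' := fun x y => by
        ext i
        simp only [Pi.add_apply, map_add]
        ring
      map_smul' := fun c x => by
        ext i
        simp only [Pi.smul_apply, smul_eq_mul, map_mul, RingHom.id_apply, Algebra.smul_def]
        ring }
  have hL : ∀ x i, L x i = algebraMap F K (x (Sum.inl i)) + algebraMap F K (x (Sum.inr i)) * ω :=
    fun _ _ => rfl
  have hLinj : Function.Injective L := by
    rw [injective_iff_map_eq_zero]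
    intro x hx
    have hcoord : ∀ i, x (Sum.inr i) = 0 ∧ x (Sum.inl i) = 0 := by
      intro i
      have h1 : algebraMap F K (x (Sum.inl i)) + algebraMap F K (x (Sum.inr i)) * ω = 0 := by
        rw [← hL, hx]
        rfl
      have h2 : x (Sum.inr i) = 0 := by
        by_contra h
        apply hω
        have h3 : ω = algebraMap F K (-(x (Sum.inl i) / x (Sum.inr i))) := by
          have h4 : algebraMap F K (x (Sum.inr i)) ≠ 0 := fun h5 => h (by simpa using h5)
          rw [map_neg, map_div₀]
          field_simp
          linear_combination h1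
        rw [h3]
        exact frob_alg hF _
      refine ⟨h2, ?_⟩
      rw [h2, map_zero, zero_mul, add_zero] at h1
      simpa using h1
    ext (i | i)
    · exact (hcoord i).2
    · exact (hcoord i).1
  have hfr : finrank F (Fin m ⊕ Fin m → F) = finrank F (Fin m → K) := by
    rw [Module.finrank_fintype_fun_eq_card, Module.finrank_pi_fintype]
    simp [finrank_eq_two hK hF]
    ring
  let Θ := LinearEquiv.ofInjectiveOfFinrankEq L hLinj hfr
  have hΘ : ∀ x, Θ x = L x := fun _ => rfl
  set D : K := ω ^ q - ω with hD
  have hD0 : D ≠ 0 := sub_ne_zero.2 hω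
  have hform_eq : ∀ x y, algebraMap F K (sympForm m F x y) * D =
      -(hermForm m K q (Θ x) (Θ y) - (hermForm m K q (Θ x) (Θ y)) ^ q) := by
    intro x y
    have hσ : (hermForm m K q (Θ x) (Θ y)) ^ q = hermForm m K q (Θ y) (Θ x) :=
      (S.conj (Θ x) (Θ y)).symm
    rw [hσ, sympForm_eq_sum, map_sum, Finset.sum_mul, hermForm, hermForm, ← Finset.sum_sub_distrib,
      ← Finset.sum_neg_distrib]
    refine Finset.sum_congr rfl fun i _ => ?_
    rw [hΘ, hΘ, hL, hL]
    have e1 : (algebraMap F K (y (Sum.inl i)) + algebraMap F K (y (Sum.inr i)) * ω) ^ q =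
        algebraMap F K (y (Sum.inl i)) + algebraMap F K (y (Sum.inr i)) * ω ^ q := by
      have := map_add (frobHom hK) (algebraMap F K (y (Sum.inl i))) (algebraMap F K (y (Sum.inr i)) * ω)
      simp only [frobHom_apply, mul_pow, frob_alg hF] at this
      exact this
    have e2 : (algebraMap F K (x (Sum.inl i)) + algebraMap F K (x (Sum.inr i)) * ω) ^ q =
        algebraMap F K (x (Sum.inl i)) + algebraMap F K (x (Sum.inr i)) * ω ^ q := by
      have := map_add (frobHom hK) (algebraMap F K (x (Sum.inl i))) (algebraMap F K (x (Sum.inr i)) * ω)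
      simp only [frobHom_apply, mul_pow, frob_alg hF] at this
      exact this
    rw [e1, e2, hD, map_sub, map_mul, map_mul]
    ring
  have hiso : ∀ g : Cfsg.GU m K q, conjHom Θ g ∈ isomGroup (sympBilin m F) := by
    intro g x y
    show sympForm m F (conjHom Θ g x) (conjHom Θ g y) = sympForm m F x y
    apply hι
    apply mul_right_cancel₀ hD0
    rw [hform_eq, hform_eq, conjHom_apply, conjHom_apply, LinearEquiv.apply_symm_apply,
      LinearEquiv.apply_symm_apply, guF_herm]
  let ψ : Cfsg.GU m K q →* isomGroup (sympBilin m F) :=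
    { toFun := fun g => ⟨conjHom Θ g, hiso g⟩
      map_one' := Subtype.ext (map_one _)
      map_mul' := fun a b => Subtype.ext (map_mul _ a b) }
  refine ⟨spEquiv.symm.toMonoidHom.comp ψ, ?_⟩
  intro a b h
  apply conjHom_injective Θ
  have h1 : ψ a = ψ b := spEquiv.symm.injective h
  exact congrArg Subtype.val h1

end Cfsg.Agent.Lib.UnitT.Embed
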