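/-
A Hermitian form from a symplectic form and an isometry of order three acting as a primitive cube
root of unity, and the resulting description of its centraliser.
-/
import Mathlib
import Cfsg.Agent.Lib.Classical.HermOrders
import Cfsg.Agent.Lib.Witt.HermModel
import Cfsg.Agent.Lib.UnitT.Embed

set_option autoImplicit false
set_option linter.unusedSimpArgs false
set_option linter.unusedSectionVars false
set_option linter.style.haveILetI false
set_option linter.unusedVariables false

namespace Cfsg.Agent.Lib.UnitT.OrderThree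

open Matrix Cfsg Module Polynomial
open Cfsg.Agent.Lib.Classical.HermBasic Cfsg.Agent.Lib.Classical.HermBridge
open Cfsg.Agent.Lib.Classical.HermOrders
open Cfsg.Agent.Lib.HermCount.Field Cfsg.Agent.Lib.HermCount.Space
open Cfsg.Agent.Lib.UnitT.Embed

universe u v w

variable {K : Type u} {F : Type w} [Field K] [Fintype K] [Field F] [Fintype F] [Algebra F K] {q : ℕ}
variable {V : Type v} [AddCommGroup V] [Module F V] [Module K V] [IsScalarTower F K V]

/-- The data of the construction. -/
structure Data (ζ : K) (f : V →ₗ[F] V →ₗ[F] F) : Prop where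
  root : ζ ^ 2 + ζ + 1 = 0
  span : ∀ k : K, ∃ a b : F, k = algebraMap F K a + algebraMap F K b * ζ
  ind : ∀ a b : F, algebraMap F K a + algebraMap F K b * ζ = 0 → a = 0 ∧ b = 0
  alt : ∀ x, f x x = 0
  nd : ∀ x, (∀ y, f x y = 0) → x = 0
  iso : ∀ u v, f (ζ • u) (ζ • v) = f u v

variable {ζ : K} {f : V →ₗ[F] V →ₗ[F] F}

theorem Data.neg (D : Data ζ f) (u v : V) : f u v = - f v u := by
  have h := D.alt (u + v)
  simp only [map_add, LinearMap.add_apply, D.alt, zero_add, add_zero] at h
  linear_combination h

theorem smul_alg (c : F) (v : V) : algebraMap F K c • v = c • v := algebraMap_smul K c v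

/-- The Hermitian form. -/
noncomputable def herm (ζ : K) (f : V →ₗ[F] V →ₗ[F] F) (u v : V) : K :=
  algebraMap F K (f (ζ • u) v) + algebraMap F K (f u v) * (1 + ζ)

theorem Data.zeta_sq (D : Data ζ f) (u : V) : ζ • ζ • u = - (ζ • u) - u := by
  rw [smul_smul]
  have h : ζ * ζ = - ζ - 1 := by linear_combination D.root
  rw [h, sub_smul, neg_smul, one_smul]

theorem Data.adj (D : Data ζ f) (u v : V) : f u (ζ • v) = - f u v - f (ζ • u) v := by
  have h1 := D.iso (ζ • u) v
  rw [D.zeta_sq, map_sub, LinearMap.sub_apply, map_neg, LinearMap.neg_apply] at h1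
  have h2 := D.iso u v
  linear_combination -h1 - h2

theorem Data.herm_zeta_left (D : Data ζ f) (u v : V) : herm ζ f (ζ • u) v = ζ * herm ζ f u v := by
  unfold herm
  rw [D.zeta_sq, map_sub, LinearMap.sub_apply, map_neg, LinearMap.neg_apply, map_sub, map_neg]
  have h : ζ * ζ = - ζ - 1 := by linear_combination D.root
  linear_combination (-algebraMap F K (f u v)) * h

theorem Data.herm_add_left (u u' v : V) : herm ζ f (u + u') v = herm ζ f u v + herm ζ f u' v := by
  unfold herm
  simp only [smul_add, map_add, LinearMap.add_apply]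
  ring

theorem Data.herm_smul_left (D : Data ζ f) (k : K) (u v : V) : herm ζ f (k • u) v = k * herm ζ f u v := by
  obtain ⟨a, b, rfl⟩ := D.span k
  have hF : ∀ (c : F) (u : V), herm ζ f (c • u) v = algebraMap F K c * herm ζ f u v := by
    intro c u
    unfold herm
    rw [smul_comm ζ c u]
    simp only [map_smul, LinearMap.smul_apply, smul_eq_mul, map_mul]
    ring
  rw [add_smul, Data.herm_add_left, smul_alg, hF, mul_smul, smul_alg, hF, D.herm_zeta_left]
  ring

theorem Data.herm_conj (D : Data ζ f) (hK : Fintype.card K = q ^ 2) (hF : Fintype.card F = q)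
    (hζ : ζ ^ q = ζ ^ 2) (u v : V) : herm ζ f v u = frobHom hK (herm ζ f u v) := by
  unfold herm
  have h1 : frobHom hK ζ = - ζ - 1 := by
    rw [frobHom_apply, hζ]
    linear_combination D.root
  have h2 : ∀ c : F, frobHom hK (algebraMap F K c) = algebraMap F K c := fun c => frob_alg hF c
  rw [map_add, map_mul, map_add, map_one, h1, h2, h2]
  have h3 : f (ζ • v) u = - f u (ζ • v) := D.neg _ _
  rw [D.adj] at h3
  have h4 : f v u = - f u v := D.neg _ _
  rw [h3, h4]
  simp only [map_neg, map_sub, sub_neg_eq_add, neg_neg, map_add]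
  ring

theorem Data.herm_form (D : Data ζ f) (hK : Fintype.card K = q ^ 2) (hF : Fintype.card F = q)
    (hζ : ζ ^ q = ζ ^ 2) : HForm (frobHom hK) (herm ζ f : V → V → K) where
  add_left := Data.herm_add_left
  smul_left := D.herm_smul_left
  conj := D.herm_conj hK hF hζ
  nd := by
    intro x hx
    apply D.nd
    intro y
    have h1 := hx y
    unfold herm at h1
    have h2 : algebraMap F K (f (ζ • x) y + f x y) + algebraMap F K (f x y) * ζ = 0 := by
      rw [map_add]
      linear_combination h1
    exact (D.ind _ _ h2).2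

theorem Data.iff_form (D : Data ζ f) (g : V ≃ₗ[K] V) :
    (∀ x y, herm ζ f (g x) (g y) = herm ζ f x y) ↔ ∀ x y, f (g x) (g y) = f x y := by
  constructor
  · intro h x y
    have h1 := h x y
    unfold herm at h1
    rw [← map_smul g ζ x] at h1
    have h2 : algebraMap F K (f (g (ζ • x)) (g y) + f (g x) (g y) - (f (ζ • x) y + f x y)) +
        algebraMap F K (f (g x) (g y) - f x y) * ζ = 0 := by
      simp only [map_add, map_sub]
      linear_combination h1
    exact sub_eq_zero.1 (D.ind _ _ h2).2
  · intro h x y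
    unfold herm
    rw [← map_smul g ζ x, h, h]

/-- A form-preserving `F`-linear map commuting with `ζ` is `K`-linear. -/
noncomputable def toKLin (D : Data ζ f) (g : V ≃ₗ[F] V) (hg : ∀ v, g (ζ • v) = ζ • g v) : V ≃ₗ[K] V :=
  { g with
    map_smul' := by
      intro k v
      obtain ⟨a, b, rfl⟩ := D.span k
      show g ((algebraMap F K a + algebraMap F K b * ζ) • v) =
        (algebraMap F K a + algebraMap F K b * ζ) • g v
      rw [add_smul, add_smul, map_add, mul_smul, mul_smul, smul_alg, smul_alg, smul_alg, smul_alg,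
        map_smul, map_smul, hg] }

@[simp] theorem toKLin_apply (D : Data ζ f) (g : V ≃ₗ[F] V) (hg : ∀ v, g (ζ • v) = ζ • g v) (v : V) :
    toKLin D g hg v = g v := rfl

/-- The group of `F`-isometries of `f` commuting with `ζ` is the unitary group of the Hermitian form. -/
noncomputable def centEquiv (D : Data ζ f) :
    {g : V ≃ₗ[F] V // (∀ x y, f (g x) (g y) = f x y) ∧ ∀ v, g (ζ • v) = ζ • g v} ≃
      uGroup (herm ζ f : V → V → K) where
  toFun g := ⟨toKLin D g.1 g.2.2, (D.iff_form _).2 (fun x y => g.2.1 x y)⟩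
  invFun g := ⟨g.1.restrictScalars F, (D.iff_form _).1 g.2, fun v => map_smul g.1 ζ v⟩
  left_inv g := by
    apply Subtype.ext
    ext v
    rfl
  right_inv g := by
    apply Subtype.ext
    ext v
    rfl

/-- Order of the group of isometries commuting with `ζ`. -/
theorem card_cent (D : Data ζ f) (hK : Fintype.card K = q ^ 2) (hF : Fintype.card F = q)
    (hζ : ζ ^ q = ζ ^ 2) [FiniteDimensional F V] {m : ℕ} (hV : finrank F V = 2 * m) :
    Nat.card {g : V ≃ₗ[F] V // (∀ x y, f (g x) (g y) = f x y) ∧ ∀ v, g (ζ • v) = ζ • g v} =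
      q ^ (m * (m - 1) / 2) *
      ∏ i ∈ Finset.range m, (if Even i then q ^ (i + 1) + 1 else q ^ (i + 1) - 1) := by
  classical
  rw [Nat.card_congr (centEquiv D)]
  have S := D.herm_form hK hF hζ
  haveI : Module.Finite F K := Module.Finite.of_finite
  have hfr : finrank K V = m := by
    have h1 := Module.finrank_mul_finrank F K V
    rw [finrank_eq_two hK hF, hV] at h1
    omega
  haveI : Finite V := Module.finite_of_finite F
  have HS : HSpace q (herm ζ f : V → V → K) := ⟨S.add_left, S.smul_left, S.conj, S.nd⟩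
  obtain ⟨ψ, hψ⟩ := Cfsg.Agent.Lib.Witt.HermModel.exists_model HS hK m hfr
  rw [← Nat.card_congr (uGroupEquiv ψ hψ).toEquiv]
  exact card_uGroup hK m

end Cfsg.Agent.Lib.UnitT.OrderThree
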