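/-
Normal form of transvections in unitary groups and unitary reflections, in matrix language.
-/
import Mathlib
import Cfsg.Agent.Lib.Classical.HermBridge
import Cfsg.Agent.Lib.Witt.HermParabolic

set_option autoImplicit false
set_option linter.unusedSimpArgs false
set_option linter.unusedSectionVars false
set_option linter.style.haveILetI false
set_option linter.unusedVariables false

namespace Cfsg.Agent.Lib.UnitT.Basic

open Matrix Cfsg Module
open Cfsg.Agent.Lib.Classical.HermBasic Cfsg.Agent.Lib.Classical.HermBridge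
open Cfsg.Agent.Lib.HermCount.Field
open Cfsg.Agent.Lib.Witt.HermParabolic Cfsg.Agent.Lib.Witt.UnitaryComm

variable {F : Type*} [Field F] [Fintype F] {q n : ℕ}

/-- Normal form of a transvection preserving the Hermitian form: `M x = x + a₀ h(x,w) w`, for any
prescribed non-zero element `a₀` of trace zero. -/
theorem exists_normal (hF : Fintype.card F = q ^ 2) {a₀ : F} (ha₀ : a₀ ≠ 0)
    (ha₀' : a₀ + frobHom hF a₀ = 0) (M : Matrix (Fin n) (Fin n) F)
    (hM : ∀ x y, hermForm n F q (M *ᵥ x) (M *ᵥ y) = hermForm n F q x y)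
    (hT : IsTransvection M) :
    ∃ w : Fin n → F, w ≠ 0 ∧ hermForm n F q w w = 0 ∧
      ∀ x, M *ᵥ x = x + (a₀ * hermForm n F q x w) • w := by
  classical
  have S := hform hF n
  have hσ := invol_frob hF
  obtain ⟨hrank, hsq⟩ := hT
  have h1 : Module.finrank F (LinearMap.range (Matrix.mulVecLin (M - 1))) = 1 := hrank
  obtain ⟨⟨v, hv'⟩, hne, hspan⟩ := finrank_eq_one_iff'.mp h1
  have hv : v ≠ 0 := fun h => hne (Subtype.ext h)
  have hc : ∀ x : Fin n → F, ∃ c : F, M *ᵥ x = x + c • v := by
    intro x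
    obtain ⟨c, hc⟩ := hspan ⟨(M - 1) *ᵥ x, ⟨x, rfl⟩⟩
    refine ⟨c, ?_⟩
    have := congrArg Subtype.val hc
    simp only [Submodule.coe_smul] at this
    rw [this, Matrix.sub_mulVec, Matrix.one_mulVec]
    abel
  choose φ hφ using hc
  have hK : ∀ x y, frobHom hF (φ y) * hermForm n F q x v + φ x * (hermForm n F q v y +
      frobHom hF (φ y) * hermForm n F q v v) = 0 := by
    intro x y
    have := hM x y
    rw [hφ, hφ] at this
    simp only [S.add_left, S.add_right, S.smul_left, S.smul_right] at this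
    linear_combination this
  obtain ⟨y₀, hy₀⟩ : ∃ y, φ y ≠ 0 := by
    by_contra hcon
    push Not at hcon
    have hone : M = 1 := by
      apply Matrix.ext_iff_mulVec.2
      intro x
      rw [hφ, hcon]
      simp
    rw [hone] at hrank
    simp at hrank
  obtain ⟨x₀, hx₀⟩ : ∃ x, hermForm n F q x v ≠ 0 := by
    by_contra hcon
    push Not at hcon
    exact hv (S.sep_right v hcon)
  have hσy₀ : frobHom hF (φ y₀) ≠ 0 := by
    intro h
    exact hy₀ ((map_eq_zero_iff _ (frobHom hF).injective).1 h)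
  have hφx₀ : φ x₀ ≠ 0 := by
    intro h
    have := hK x₀ y₀
    rw [h, zero_mul, add_zero] at this
    exact (mul_ne_zero hσy₀ hx₀) this
  set a := φ x₀ / hermForm n F q x₀ v with ha
  have ha0 : a ≠ 0 := div_ne_zero hφx₀ hx₀
  have hφa : ∀ x, φ x = a * hermForm n F q x v := by
    intro x
    have h1 := hK x y₀
    have h2 := hK x₀ y₀
    have h3 : frobHom hF (φ y₀) * (hermForm n F q x v * φ x₀ - φ x * hermForm n F q x₀ v) = 0 := by
      linear_combination (φ x₀) * h1 - (φ x) * h2
    have h4 := (mul_eq_zero.1 h3).resolve_left hσy₀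
    rw [ha]
    field_simp
    linear_combination -h4
  have hvv : hermForm n F q v v = 0 := by
    have h1 : (M - 1) *ᵥ x₀ = φ x₀ • v := by
      rw [Matrix.sub_mulVec, Matrix.one_mulVec, hφ]
      abel
    have h2 : (M - 1) *ᵥ v = φ v • v := by
      rw [Matrix.sub_mulVec, Matrix.one_mulVec, hφ]
      abel
    have h3 : ((M - 1) * (M - 1)) *ᵥ x₀ = (φ x₀ * φ v) • v := by
      rw [← Matrix.mulVec_mulVec, h1, Matrix.mulVec_smul, h2, smul_smul]
    rw [hsq, Matrix.zero_mulVec] at h3
    have h4 : φ x₀ * φ v = 0 := by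
      by_contra hcon
      exact (smul_ne_zero hcon hv) h3.symm
    have h5 := (mul_eq_zero.1 h4).resolve_left hφx₀
    rw [hφa] at h5
    exact (mul_eq_zero.1 h5).resolve_left ha0
  have hpure : a + frobHom hF a = 0 := by
    have := hK x₀ x₀
    rw [hvv, hφa x₀, map_mul, S.conj x₀ v] at this
    have hH : hermForm n F q x₀ v * frobHom hF (hermForm n F q x₀ v) ≠ 0 :=
      mul_ne_zero hx₀ (fun h => hx₀ ((map_eq_zero_iff _ (frobHom hF).injective).1 h))
    have h2 : (a + frobHom hF a) * (hermForm n F q x₀ v * frobHom hF (hermForm n F q x₀ v)) = 0 := by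
      linear_combination this
    exact (mul_eq_zero.1 h2).resolve_right hH
  have hfix : frobHom hF (a / a₀) = a / a₀ := by
    rw [map_div₀, show frobHom hF a = -a by linear_combination hpure,
      show frobHom hF a₀ = -a₀ by linear_combination ha₀', neg_div_neg_eq]
  obtain ⟨b, hb⟩ := hσ.exists_norm _ (div_ne_zero ha0 ha₀) hfix
  have hb0 : b ≠ 0 := by
    rintro rfl
    rw [zero_mul] at hb
    exact div_ne_zero ha0 ha₀ hb.symm
  refine ⟨b • v, smul_ne_zero hb0 hv, ?_, ?_⟩
  · rw [S.smul_left, S.smul_right, hvv]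
    ring
  · intro x
    rw [hφ, hφa, S.smul_right, smul_smul]
    congr 2
    have : a = a₀ * (b * frobHom hF b) := by
      rw [hb]
      field_simp
    rw [this]
    ring

/-- The matrix of the unitary reflection `x ↦ x + ((ζ-1)/h(y,y)) h(x,y) y`. -/
noncomputable def reflMat (q : ℕ) (y : Fin n → F) (ζ : F) : Matrix (Fin n) (Fin n) F :=
  1 + vecMulVec (((ζ - 1) / hermForm n F q y y) • y) (fun j => y j ^ q)

theorem reflMat_mulVec (y : Fin n → F) (ζ : F) (x : Fin n → F) :
    reflMat q y ζ *ᵥ x = x + (((ζ - 1) / hermForm n F q y y) * hermForm n F q x y) • y := by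
  unfold reflMat
  rw [Matrix.add_mulVec, Matrix.one_mulVec, Matrix.vecMulVec_mulVec, dot_pow, op_smul_eq_smul,
    smul_smul, mul_comm]

theorem det_reflMat (hF : Fintype.card F = q ^ 2) (y : Fin n → F) (ζ : F)
    (hy : hermForm n F q y y ≠ 0) : (reflMat q y ζ).det = ζ := by
  have S := hform hF n
  unfold reflMat
  rw [Matrix.vecMulVec_eq (ι := Unit), Matrix.det_one_add_replicateCol_mul_replicateRow, dot_pow,
    S.smul_left]
  field_simp
  ring

theorem reflMat_iso (hF : Fintype.card F = q ^ 2) (y : Fin n → F) {ζ : F}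
    (hy : hermForm n F q y y ≠ 0) (hζ : ζ * frobHom hF ζ = 1) (x z : Fin n → F) :
    hermForm n F q (reflMat q y ζ *ᵥ x) (reflMat q y ζ *ᵥ z) = hermForm n F q x z := by
  have S := hform hF n
  rw [reflMat_mulVec, reflMat_mulVec]
  simp only [S.add_left, S.add_right, S.smul_left, S.smul_right, map_mul, map_div₀, map_sub,
    map_one, S.self_fix]
  rw [← S.conj z y]
  field_simp
  linear_combination (hermForm n F q x y * hermForm n F q y z) * hζ

/-- A non-isotropic vector orthogonal to a given isotropic vector. -/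
theorem exists_nonisotropic_orth (hF : Fintype.card F = q ^ 2) (hn : 3 ≤ n) {e : Fin n → F}
    (he : e ≠ 0) (hee : hermForm n F q e e = 0) :
    ∃ y : Fin n → F, hermForm n F q y y ≠ 0 ∧ hermForm n F q y e = 0 ∧ hermForm n F q e y = 0 := by
  classical
  have S := hform hF n
  have hσ := invol_frob hF
  obtain ⟨f, hff, hfe⟩ := S.exists_partner hσ he hee
  have H : IsHP (hermForm n F q) e f := ⟨hee, hff, hfe⟩
  have hdim := finrank_perp2 S H
  rw [Module.finrank_fin_fun] at hdim
  have hpos : 0 < finrank F (perp2 S e f) := by omega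
  haveI : Nontrivial (perp2 S e f) := Module.nontrivial_of_finrank_pos hpos
  obtain ⟨u, hu⟩ := exists_ne (0 : perp2 S e f)
  obtain ⟨x, hx⟩ := (restrict S H).exists_nonisotropic hσ hu
  refine ⟨x.1, hx, x.2.1, S.zero_symm x.2.1⟩

end Cfsg.Agent.Lib.UnitT.Basic
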