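/-
`GU_m(q)` inside orthogonal groups over `F_q`: the norm form `v ↦ h(v,v)` on `K^m` as a quadratic form
over `F`.
-/
import Mathlib
import Cfsg.Agent.Lib.UnitT.Embed

set_option autoImplicit false
set_option linter.unusedSimpArgs false
set_option linter.unusedSectionVars false
set_option linter.style.haveILetI false
set_option linter.unusedVariables false

namespace Cfsg.Agent.Lib.UnitT.EmbedO

open Matrix Cfsg Module Polynomial QuadraticMap
open Cfsg.Agent.Lib.Classical.HermBasic Cfsg.Agent.Lib.Classical.HermBridge
open Cfsg.Agent.Lib.HermCount.Field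
open Cfsg.Agent.Lib.UnitT.Embed
open Cfsg.Agent.Lib.Witt.Quadratic Cfsg.Agent.Lib.Orth.Bridge Cfsg.Agent.Lib.Orth.HypBasis
  Cfsg.Agent.Lib.QuadFn.MaxSingular Cfsg.Agent.Lib.Orth.Forms

variable {K F : Type*} [Field K] [Fintype K] [Field F] [Fintype F] [Algebra F K] {q : ℕ}

variable (F) in
/-- Descent from `K` to `F`. -/
noncomputable def res (y : K) : F := Function.invFun (algebraMap F K) y

theorem alg_res (hK : Fintype.card K = q ^ 2) (hF : Fintype.card F = q) {y : K} (hy : y ^ q = y) :
    algebraMap F K (res F y) = y :=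
  Function.invFun_eq (mem_range_of_fixed hK hF hy)

theorem self_fix (hK : Fintype.card K = q ^ 2) {m : ℕ} (v : Fin m → K) :
    (hermForm m K q v v) ^ q = hermForm m K q v v :=
  (hform hK m).self_fix v

theorem pol_fix (hK : Fintype.card K = q ^ 2) {m : ℕ} (u v : Fin m → K) :
    (hermForm m K q u v + hermForm m K q v u) ^ q = hermForm m K q u v + hermForm m K q v u := by
  have S := hform hK m
  have h1 : (hermForm m K q u v) ^ q = hermForm m K q v u := (S.conj u v).symm
  have h2 : (hermForm m K q v u) ^ q = hermForm m K q u v := (S.conj v u).symm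
  rw [frob_add hK, h1, h2, add_comm]

theorem smul_eq_alg {m : ℕ} (c : F) (v : Fin m → K) : c • v = (algebraMap F K c) • v :=
  (algebraMap_smul K c v).symm

/-- The norm form of a Hermitian space as a quadratic form over `F`. -/
noncomputable def normForm (hK : Fintype.card K = q ^ 2) (hF : Fintype.card F = q) (m : ℕ) :
    QuadraticForm F (Fin m → K) where
  toFun v := res F (hermForm m K q v v)
  toFun_smul c v := by
    have S := hform hK m
    apply (algebraMap F K).injective
    rw [alg_res hK hF (self_fix hK _), smul_eq_alg, S.smul_left, S.smul_right, smul_eq_mul, map_mul,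
      map_mul, alg_res hK hF (self_fix hK _)]
    show _ * ((algebraMap F K c) ^ q * _) = _
    rw [frob_alg hF]
    ring
  exists_companion' := by
    have S := hform hK m
    let B : LinearMap.BilinMap F (Fin m → K) F := LinearMap.mk₂ F
      (fun u v => res F (hermForm m K q u v + hermForm m K q v u))
      (fun x y z => by
        apply (algebraMap F K).injective
        rw [map_add, alg_res hK hF (pol_fix hK _ _), alg_res hK hF (pol_fix hK _ _),
          alg_res hK hF (pol_fix hK _ _), S.add_left, S.add_right]
        ring)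
      (fun c x z => by
        apply (algebraMap F K).injective
        rw [smul_eq_mul, map_mul, alg_res hK hF (pol_fix hK _ _), alg_res hK hF (pol_fix hK _ _),
          smul_eq_alg, S.smul_left, S.smul_right]
        show _ + (algebraMap F K c) ^ q * _ = _
        rw [frob_alg hF]
        ring)
      (fun x y z => by
        apply (algebraMap F K).injective
        rw [map_add, alg_res hK hF (pol_fix hK _ _), alg_res hK hF (pol_fix hK _ _),
          alg_res hK hF (pol_fix hK _ _), S.add_left, S.add_right]
        ring)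
      (fun c x z => by
        apply (algebraMap F K).injective
        rw [smul_eq_mul, map_mul, alg_res hK hF (pol_fix hK _ _), alg_res hK hF (pol_fix hK _ _),
          smul_eq_alg, S.smul_left, S.smul_right]
        show (algebraMap F K c) ^ q * _ + _ = _
        rw [frob_alg hF]
        ring)
    refine ⟨B, fun x y => ?_⟩
    apply (algebraMap F K).injective
    show algebraMap F K (res F _) = algebraMap F K (res F _ + res F _ + res F _)
    rw [map_add, map_add, alg_res hK hF (self_fix hK _), alg_res hK hF (self_fix hK _),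
      alg_res hK hF (self_fix hK _), alg_res hK hF (pol_fix hK _ _), S.add_left, S.add_right,
      S.add_right]
    ring

theorem alg_normForm (hK : Fintype.card K = q ^ 2) (hF : Fintype.card F = q) {m : ℕ} (v : Fin m → K) :
    algebraMap F K (normForm hK hF m v) = hermForm m K q v v :=
  alg_res hK hF (self_fix hK v)

theorem alg_polar (hK : Fintype.card K = q ^ 2) (hF : Fintype.card F = q) {m : ℕ} (u v : Fin m → K) :
    algebraMap F K (polar (normForm hK hF m) u v) = hermForm m K q u v + hermForm m K q v u := by
  have S := hform hK m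
  simp only [polar, map_sub, map_add, alg_normForm, S.add_left, S.add_right]
  ring

theorem normForm_nondeg (hK : Fintype.card K = q ^ 2) (hF : Fintype.card F = q) (m : ℕ) :
    (polarBilin (normForm hK hF m)).Nondegenerate := by
  have S := hform hK m
  have hrefl : (polarBilin (normForm hK hF m) : LinearMap.BilinForm F (Fin m → K)).IsRefl :=
    fun x y h => by
      have h1 : polar (normForm hK hF m) x y = 0 := h
      show polar (normForm hK hF m) y x = 0
      rw [polar_comm, h1]
  refine (LinearMap.IsRefl.nondegenerate_iff_separatingLeft hrefl).2 ?_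
  intro u hu
  apply S.nd
  intro v₀
  by_contra hv₀
  obtain ⟨s, hs⟩ := exists_trace hK 1 (one_pow q)
  set c : K := (s / hermForm m K q u v₀) ^ q with hc
  have hcq : c ^ q = s / hermForm m K q u v₀ := frob_frob hK _
  have h1 : hermForm m K q u (c • v₀) = s := by
    rw [S.smul_right]
    show c ^ q * _ = s
    rw [hcq]
    field_simp
  have h2 : hermForm m K q (c • v₀) u = s ^ q := by
    rw [S.conj u (c • v₀), h1]
    rfl
  have h3 := congrArg (algebraMap F K) (hu (c • v₀))
  have h4 : algebraMap F K (polar (normForm hK hF m) u (c • v₀)) = 0 := by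
    have : polar (normForm hK hF m) u (c • v₀) = 0 := hu (c • v₀)
    rw [this, map_zero]
  rw [alg_polar, h1, h2, hs] at h4
  exact one_ne_zero h4

theorem finrank_pi (hK : Fintype.card K = q ^ 2) (hF : Fintype.card F = q) (m : ℕ) :
    finrank F (Fin m → K) = 2 * m := by
  haveI : Module.Finite F K := Module.Finite.of_finite
  rw [Module.finrank_pi_fintype]
  simp [finrank_eq_two hK hF]
  ring

/-- **Lemma B**: in even dimension the norm form is hyperbolic. -/
theorem exists_Theta_even (hK : Fintype.card K = q ^ 2) (hF : Fintype.card F = q) {m : ℕ} (hm : Even m) :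
    ∃ Θ : (Fin m ⊕ Fin m → F) ≃ₗ[F] (Fin m → K),
      ∀ x, algebraMap F K (quadFormPlus m F x) = hermForm m K q (Θ x) (Θ x) := by
  classical
  obtain ⟨r, rfl⟩ := hm
  have S := hform hK (r + r)
  haveI : Module.Finite F K := Module.Finite.of_finite
  obtain ⟨l, hl⟩ := (invol_frob hK).exists_norm (-1) (neg_ne_zero.2 one_ne_zero)
    (by rw [map_neg, map_one])
  have hl' : l * l ^ q = -1 := hl
  let ψ : (Fin r → K) →ₗ[F] (Fin (r + r) → K) :=
    { toFun := fun a => Fin.append a (fun i => l * a i)
      map_add' := fun a b => by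
        ext i
        refine Fin.addCases (fun i => ?_) (fun i => ?_) i
        · simp only [Pi.add_apply, Fin.append_left]
        · simp only [Pi.add_apply, Fin.append_right, mul_add]
      map_smul' := fun c a => by
        ext i
        refine Fin.addCases (fun i => ?_) (fun i => ?_) i
        · simp only [Pi.smul_apply, Fin.append_left, RingHom.id_apply]
        · simp only [Pi.smul_apply, Fin.append_right, Algebra.smul_def, RingHom.id_apply]
          ring }
  have hψ : Function.Injective ψ := by
    intro a b h
    ext i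
    have := congrFun h (Fin.castAdd r i)
    simpa [ψ, Fin.append_left] using this
  have hTS : TS (⇑(normForm hK hF (r + r))) (LinearMap.range ψ) := by
    rintro _ ⟨a, rfl⟩
    apply (algebraMap F K).injective
    rw [alg_normForm, map_zero, hermForm, Fin.sum_univ_add, ← Finset.sum_add_distrib]
    refine Finset.sum_eq_zero fun i _ => ?_
    simp only [ψ, LinearMap.coe_mk, AddHom.coe_mk, Fin.append_left, Fin.append_right, mul_pow]
    linear_combination (a i * a i ^ q) * hl'
  have hdim : finrank F (LinearMap.range ψ) = r + r := by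
    rw [LinearMap.finrank_range_of_inj hψ, finrank_pi hK hF]
    ring
  obtain ⟨Θ, hΘ⟩ := exists_equiv_plus_of_ts (normForm_nondeg hK hF (r + r)) (finrank_pi hK hF (r + r))
    hTS hdim
  refine ⟨Θ, fun x => ?_⟩
  rw [← hΘ, alg_normForm]

/-- Transport of the unitary group into the isometry group of a form. -/
theorem embed_of_Theta {ι' : Type} [Fintype ι'] [DecidableEq ι'] (Q' : QuadraticForm F (ι' → F)) {m : ℕ}
    (Θ : (ι' → F) ≃ₗ[F] (Fin m → K))
    (hΘ : ∀ x, algebraMap F K (Q' x) = hermForm m K q (Θ x) (Θ x)) :
    ∃ φ : ↥(Cfsg.GU m K q) →* ↥(Cfsg.isometryGroup F ⇑Q'), Function.Injective φ := by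
  have hiso : ∀ g : Cfsg.GU m K q, conjHom Θ g ∈ isoGroup Q' := by
    intro g x
    show Q' (conjHom Θ g x) = Q' x
    apply (algebraMap F K).injective
    rw [hΘ, hΘ, conjHom_apply, LinearEquiv.apply_symm_apply, guF_herm]
  let ψ : Cfsg.GU m K q →* isoGroup Q' :=
    { toFun := fun g => ⟨conjHom Θ g, hiso g⟩
      map_one' := Subtype.ext (map_one _)
      map_mul' := fun a b => Subtype.ext (map_mul _ a b) }
  refine ⟨(toIso Q').symm.toMonoidHom.comp ψ, ?_⟩
  intro a b h
  apply conjHom_injective Θ
  have h1 : ψ a = ψ b := (toIso Q').symm.injective h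
  exact congrArg Subtype.val h1

/-- A root of an anisotropic binary form in `K`. -/
theorem exists_root (hK : Fintype.card K = q ^ 2) (hF : Fintype.card F = q) (a b : F)
    (hab : ∀ z₁ z₂ : F, z₁ ^ 2 + a * z₁ * z₂ + b * z₂ ^ 2 = 0 → z₁ = 0 ∧ z₂ = 0) :
    ∃ ω : K, ω ^ q ≠ ω ∧ ω + ω ^ q = algebraMap F K a ∧ ω * ω ^ q = algebraMap F K b := by
  classical
  set p : F[X] := X ^ 2 - C a * X + C b with hp
  have hdeg : p.natDegree = 2 := by
    rw [hp]
    compute_degree!
  have hmonic : p.Monic := by
    rw [hp]
    monicity!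
  have hnoroot : ∀ t : F, t ^ 2 - a * t + b ≠ 0 := by
    intro t ht
    have := (hab t (-1) (by linear_combination ht)).2
    exact one_ne_zero (neg_eq_zero.1 this)
  have hirr : Irreducible p := by
    rw [hmonic.irreducible_iff_roots_eq_zero_of_degree_le_three (by omega) (by omega)]
    apply Multiset.eq_zero_of_forall_notMem
    intro t ht
    have h1 := (Polynomial.mem_roots'.1 ht).2
    apply hnoroot t
    simpa [hp, Polynomial.IsRoot] using h1
  haveI : Fact (Irreducible p) := ⟨hirr⟩
  have hfr : finrank F (AdjoinRoot p) = 2 := by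
    rw [(AdjoinRoot.powerBasis hirr.ne_zero).finrank, ← hdeg]
    rfl
  have hd : finrank F (AdjoinRoot p) ∣ finrank F K := by
    rw [hfr, finrank_eq_two hK hF]
  obtain ⟨f⟩ := FiniteField.nonempty_algHom_of_finrank_dvd hd
  set ω : K := f (AdjoinRoot.root p) with hω
  have hroot : ω ^ 2 - algebraMap F K a * ω + algebraMap F K b = 0 := by
    have h1 : aeval (AdjoinRoot.root p) p = 0 := by
      rw [AdjoinRoot.aeval_eq, AdjoinRoot.mk_self]
    have h2 : aeval ω p = 0 := by
      rw [hω, Polynomial.aeval_algHom_apply, h1, map_zero]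
    simpa [hp] using h2
  have hroot' : (ω ^ q) ^ 2 - algebraMap F K a * ω ^ q + algebraMap F K b = 0 := by
    have := congrArg (frobHom hK) hroot
    rw [map_zero] at this
    simpa [frob_alg hF, map_add, map_sub, map_mul, map_pow, pow_right_comm] using this
  have hne : ω ^ q ≠ ω := by
    intro h
    obtain ⟨t, ht⟩ := mem_range_of_fixed hK hF h
    apply hnoroot t
    apply (algebraMap F K).injective
    simp only [map_add, map_sub, map_mul, map_pow, map_zero, ht]
    exact hroot
  have hsum : ω + ω ^ q = algebraMap F K a := by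
    have h3 : (ω ^ q - ω) * (ω + ω ^ q - algebraMap F K a) = 0 := by
      linear_combination hroot' - hroot
    have := (mul_eq_zero.1 h3).resolve_left (sub_ne_zero.2 hne)
    exact sub_eq_zero.1 this
  refine ⟨ω, hne, hsum, ?_⟩
  have h4 : ω ^ q = algebraMap F K a - ω := by
    rw [← hsum]
    ring
  rw [h4]
  linear_combination -hroot

/-- **Lemma C**: in odd dimension the norm form is elliptic. -/
theorem exists_Theta_odd (hK : Fintype.card K = q ^ 2) (hF : Fintype.card F = q) {m : ℕ} (hm : Even m)
    (a b : F) (hab : ∀ z₁ z₂ : F, z₁ ^ 2 + a * z₁ * z₂ + b * z₂ ^ 2 = 0 → z₁ = 0 ∧ z₂ = 0) :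
    ∃ Θ : ((Fin m ⊕ Fin m) ⊕ Fin 2 → F) ≃ₗ[F] (Fin (m + 1) → K),
      ∀ x, algebraMap F K (quadFormMinus m F a b x) = hermForm (m + 1) K q (Θ x) (Θ x) := by
  classical
  obtain ⟨Θ', hΘ'⟩ := exists_Theta_even (K := K) hK hF hm
  obtain ⟨ω, hne, hsum, hprod⟩ := exists_root hK hF a b hab
  haveI : Module.Finite F K := Module.Finite.of_finite
  have hlast : ∀ z₀ z₁ : F, (algebraMap F K z₀ + algebraMap F K z₁ * ω) *
      (algebraMap F K z₀ + algebraMap F K z₁ * ω) ^ q =
        algebraMap F K (z₀ ^ 2 + a * z₀ * z₁ + b * z₁ ^ 2) := by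
    intro z₀ z₁
    have h1 : (algebraMap F K z₀ + algebraMap F K z₁ * ω) ^ q =
        algebraMap F K z₀ + algebraMap F K z₁ * ω ^ q := by
      have := map_add (frobHom hK) (algebraMap F K z₀) (algebraMap F K z₁ * ω)
      simp only [frobHom_apply, mul_pow, frob_alg hF] at this
      exact this
    rw [h1]
    simp only [map_add, map_mul, map_pow]
    rw [← hsum, ← hprod]
    ring
  let L : ((Fin m ⊕ Fin m) ⊕ Fin 2 → F) →ₗ[F] (Fin (m + 1) → K) :=
    { toFun := fun x => Fin.snoc (α := fun _ => K) (Θ' (fun i => x (Sum.inl i)))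
        (algebraMap F K (x (Sum.inr 0)) + algebraMap F K (x (Sum.inr 1)) * ω)
      map_add' := fun x y => by
        ext i
        refine Fin.lastCases ?_ (fun i => ?_) i
        · simp only [Fin.snoc_last, Pi.add_apply, map_add]
          ring
        · simp only [Fin.snoc_castSucc, Pi.add_apply]
          have : (fun i => x (Sum.inl i) + y (Sum.inl i)) =
              (fun i => x (Sum.inl i)) + (fun i => y (Sum.inl i)) := rfl
          rw [this, map_add]
          rfl
      map_smul' := fun c x => by
        ext i
        refine Fin.lastCases ?_ (fun i => ?_) i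
        · simp only [Fin.snoc_last, Pi.smul_apply, smul_eq_mul, map_mul, RingHom.id_apply, Algebra.smul_def]
          ring
        · simp only [Fin.snoc_castSucc, Pi.smul_apply, RingHom.id_apply]
          have : (fun i => c • x (Sum.inl i)) = c • (fun i => x (Sum.inl i)) := rfl
          rw [this, map_smul]
          rfl }
  have hLcast : ∀ x (i : Fin m), L x i.castSucc = Θ' (fun i => x (Sum.inl i)) i := by
    intro x i
    show Fin.snoc (α := fun _ => K) _ _ _ = _
    simp only [Fin.snoc_castSucc]
  have hLlast : ∀ x, L x (Fin.last m) =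
      algebraMap F K (x (Sum.inr 0)) + algebraMap F K (x (Sum.inr 1)) * ω := by
    intro x
    show Fin.snoc (α := fun _ => K) _ _ _ = _
    simp only [Fin.snoc_last]
  have hLh : ∀ x, algebraMap F K (quadFormMinus m F a b x) = hermForm (m + 1) K q (L x) (L x) := by
    intro x
    rw [hermForm, Fin.sum_univ_castSucc]
    simp only [hLcast, hLlast]
    rw [hlast]
    have h1 := hΘ' (fun i => x (Sum.inl i))
    unfold quadFormPlus at h1
    unfold quadFormMinus
    rw [map_add, h1]
    rfl
  have hLinj : Function.Injective L := by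
    rw [injective_iff_map_eq_zero]
    intro x hx
    have hlast0 : algebraMap F K (x (Sum.inr 0)) + algebraMap F K (x (Sum.inr 1)) * ω = 0 := by
      rw [← hLlast, hx]
      rfl
    have h2 := hlast (x (Sum.inr 0)) (x (Sum.inr 1))
    rw [hlast0, zero_mul] at h2
    have h3 : (x (Sum.inr 0)) ^ 2 + a * x (Sum.inr 0) * x (Sum.inr 1) + b * (x (Sum.inr 1)) ^ 2 = 0 :=
      (map_eq_zero_iff _ (algebraMap F K).injective).1 h2.symm
    obtain ⟨h4, h5⟩ := hab _ _ h3
    have h6 : Θ' (fun i => x (Sum.inl i)) = 0 := by
      ext i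
      rw [← hLcast, hx]
      rfl
    have h7 : (fun i => x (Sum.inl i)) = 0 := by
      apply Θ'.injective
      rw [h6, map_zero]
    ext (i | i)
    · exact congrFun h7 i
    · fin_cases i
      · exact h4
      · exact h5
  have hfr : finrank F ((Fin m ⊕ Fin m) ⊕ Fin 2 → F) = finrank F (Fin (m + 1) → K) := by
    rw [Module.finrank_fintype_fun_eq_card, finrank_pi hK hF]
    simp
    ring
  refine ⟨LinearEquiv.ofInjectiveOfFinrankEq L hLinj hfr, fun x => ?_⟩
  exact hLh x

end Cfsg.Agent.Lib.UnitT.EmbedO
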